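import Cfsg.Agent.Lib.MinDim.Inverted
import Mathlib.NumberTheory.LegendreSymbol.AddCharacter
import Mathlib.LinearAlgebra.Matrix.FiniteDimensional
import Mathlib.RingTheory.Polynomial.Cyclotomic.Basic
import Mathlib.RingTheory.RootsOfUnity.AlgebraicallyClosed
import Mathlib.LinearAlgebra.LinearIndependent.Lemmas
import Mathlib.FieldTheory.Finite.Basic

/-! Characters of an elementary abelian `p`-group acting in characteristic prime to `p`. -/

set_option autoImplicit false

namespace CfsgLib.MinDim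

open Matrix Polynomial

variable {K : Type*} [Field K] [IsAlgClosed K] {n : Type*} [Fintype n] [DecidableEq n]

theorem exists_eigen_ne_one {p : ℕ} (hp : 0 < p) (hpK : (p : K) ≠ 0) (M : Matrix n n K)
    (hM : M ^ p = 1) (h1 : M ≠ 1) :
    ∃ (μ : K) (v : n → K), μ ≠ 1 ∧ v ≠ 0 ∧ M *ᵥ v = μ • v := by
  classical
  haveI : NeZero (p : K) := ⟨hpK⟩
  obtain ⟨ζ, hζ⟩ := HasEnoughRootsOfUnity.exists_primitiveRoot K p
  by_contra hcon
  have hinj : ∀ s : Finset K, 1 ∉ s →
      ∀ v : n → K, (aeval M (∏ μ ∈ s, (X - C μ))) *ᵥ v = 0 → v = 0 := by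
    intro s hs
    induction s using Finset.induction_on with
    | empty => intro v hv; simpa using hv
    | insert μ s hμ ih =>
      intro v hv
      rw [Finset.prod_insert hμ, map_mul, ← Matrix.mulVec_mulVec] at hv
      by_contra hv0
      refine hcon ⟨μ, (aeval M (∏ ν ∈ s, (X - C ν))) *ᵥ v,
        fun h => hs (h ▸ Finset.mem_insert_self μ s),
        fun h => hv0 (ih (fun h => hs (Finset.mem_insert_of_mem h)) v h), ?_⟩
      simp only [map_sub, aeval_X, aeval_C, Algebra.algebraMap_eq_smul_one, Matrix.sub_mulVec,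
        Matrix.smul_mulVec, Matrix.one_mulVec, sub_eq_zero] at hv
      exact hv
  have hmem : (1 : K) ∈ Polynomial.nthRootsFinset p (1 : K) := by
    rw [Polynomial.mem_nthRootsFinset hp, one_pow]
  have hprod : aeval M (X ^ p - 1 : K[X]) = 0 := by simp [hM]
  rw [X_pow_sub_one_eq_prod hp hζ, ← Finset.prod_erase_mul _ _ hmem, map_mul] at hprod
  refine h1 (Matrix.ext_of_mulVec_single fun i => ?_)
  have h2 := hinj ((Polynomial.nthRootsFinset p (1 : K)).erase 1) (Finset.notMem_erase _ _)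
    ((aeval M (X - C (1 : K))) *ᵥ Pi.single i 1) (by rw [Matrix.mulVec_mulVec, hprod, Matrix.zero_mulVec])
  simp only [map_sub, aeval_X, map_one, Matrix.sub_mulVec] at h2
  exact sub_eq_zero.mp h2

omit [IsAlgClosed K] in
theorem eq_of_addChar_dot_eq {F : Type*} [Field F] {m : ℕ} {ψ : AddChar F K} (hψ : ψ ≠ 1)
    {a b : Fin m → F} (h : ∀ x, ψ (a ⬝ᵥ x) = ψ (b ⬝ᵥ x)) : a = b := by
  funext i
  refine AddChar.to_mulShift_inj_of_isPrimitive (AddChar.IsPrimitive.of_ne_one hψ) ?_
  ext t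
  simpa [AddChar.mulShift_apply, dotProduct_single] using h (Pi.single i t)

variable {F : Type*} [Field F] [Fintype F] {m : ℕ}

theorem exists_dot_char (hp : (ringChar F : K) ≠ 0) (u : (Fin m → F) → Matrix n n K) (h0 : u 0 = 1)
    (hadd : ∀ x y, u (x + y) = u x * u y) (x₀ : Fin m → F) (hx₀ : u x₀ ≠ 1) :
    ∃ (ψ : AddChar F K) (a : Fin m → F) (w : n → K), ψ ≠ 1 ∧ ψ (a ⬝ᵥ x₀) ≠ 1 ∧ w ≠ 0 ∧
      ∀ x, u x *ᵥ w = ψ (a ⬝ᵥ x) • w := by
  classical
  haveI : Fact (Nat.Prime (ringChar F)) := ⟨CharP.char_is_prime F (ringChar F)⟩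
  have hpow : ∀ k : ℕ, u (k • x₀) = u x₀ ^ k := by
    intro k
    induction k with
    | zero => rw [zero_smul, h0, pow_zero]
    | succ k ih => rw [succ_nsmul, hadd, ih, pow_succ]
  have hM : u x₀ ^ ringChar F = 1 := by
    rw [← hpow, ← h0]
    congr 1
    funext i
    simp [nsmul_eq_mul]
  obtain ⟨μ, v, hμ, hv, hxv⟩ := exists_eigen_ne_one (Nat.Prime.pos Fact.out) hp (u x₀) hM hx₀
  obtain ⟨χ, w, hw, hχ₀, hχ⟩ := exists_common_eigenvector u
    (fun x y => by rw [← hadd, ← hadd, add_comm]) x₀ μ v hv hxv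
  have hinjw : ∀ c c' : K, c • w = c' • w → c = c' := fun c c' h => smul_left_injective K hw h
  have hχ0 : χ 0 = 1 := hinjw _ _ (by rw [← hχ, h0, Matrix.one_mulVec, one_smul])
  have hχadd : ∀ x y, χ (x + y) = χ x * χ y := fun x y => hinjw _ _ (by
    rw [← hχ, hadd, ← Matrix.mulVec_mulVec, hχ, Matrix.mulVec_smul, hχ, smul_smul, mul_comm])
  let Φ : AddChar (Fin m → F) K := ⟨χ, hχ0, hχadd⟩
  obtain ⟨i, hi⟩ : ∃ i, Φ (Pi.single i (x₀ i)) ≠ 1 := by
    by_contra hall
    simp only [not_exists, not_not] at hall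
    have hsum : ∀ s : Finset (Fin m), Φ (∑ j ∈ s, Pi.single j (x₀ j)) = 1 := by
      intro s
      induction s using Finset.induction_on with
      | empty => simp
      | insert j s hj ih => rw [Finset.sum_insert hj, AddChar.map_add_eq_mul, hall, ih, one_mul]
    have h1 : Φ x₀ = 1 := by
      have h2 := hsum Finset.univ
      rwa [Finset.univ_sum_single x₀] at h2
    exact hμ (by rw [← hχ₀]; exact h1)
  let ψ : AddChar F K := Φ.compAddMonoidHom (AddMonoidHom.single (fun _ : Fin m => F) i)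
  have hψ : ψ ≠ 1 := fun h => hi (by
    have h' := DFunLike.congr_fun h (x₀ i)
    simpa [ψ] using h')
  let toHom : (Fin m → F) → (Multiplicative (Fin m → F) →* K) := fun a =>
    (ψ.compAddMonoidHom (dotProductEquiv F (Fin m) a).toAddMonoidHom).toMonoidHom
  have hli := linearIndependent_monoidHom (Multiplicative (Fin m → F)) K
  haveI : Finite (Multiplicative (Fin m → F) →* K) := hli.finite
  haveI := Fintype.ofFinite (Multiplicative (Fin m → F) →* K)
  have hcard : Fintype.card (Multiplicative (Fin m → F) →* K) ≤ Fintype.card (Fin m → F) := by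
    simpa [Module.finrank_fintype_fun_eq_card] using hli.fintype_card_le_finrank
  have hinj : Function.Injective toHom := fun a b h => eq_of_addChar_dot_eq hψ fun x => by
    have h' := DFunLike.congr_fun h (Multiplicative.ofAdd x)
    simpa [toHom] using h'
  have hbij : Function.Bijective toHom := (Fintype.bijective_iff_injective_and_card toHom).mpr
    ⟨hinj, le_antisymm (Fintype.card_le_of_injective toHom hinj) hcard⟩
  obtain ⟨a, ha⟩ := hbij.2 Φ.toMonoidHom
  have hchi : ∀ x, χ x = ψ (a ⬝ᵥ x) := fun x => by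
    have h' := DFunLike.congr_fun ha (Multiplicative.ofAdd x)
    simpa [toHom, Φ] using h'.symm
  exact ⟨ψ, a, w, hψ, by rw [← hchi, hχ₀]; exact hμ, hw, fun x => by rw [hχ, hchi]⟩

omit [IsAlgClosed K] in
theorem card_le_of_orbit (u : (Fin m → F) → Matrix n n K) {ψ : AddChar F K} (hψ : ψ ≠ 1)
    (a : Fin m → F) (w : n → K) (hw : w ≠ 0) (ha : ∀ x, u x *ᵥ w = ψ (a ⬝ᵥ x) • w)
    (B : Finset (Fin m → F))
    (h : ∀ b ∈ B, ∃ y : Matrix n n K, IsUnit y ∧
      ∀ x, ∃ x', u x * y = y * u x' ∧ a ⬝ᵥ x' = b ⬝ᵥ x) :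
    B.card ≤ Fintype.card n := by
  classical
  let f : (Fin m → F) → ((Fin m → F) → K) := fun b x => ψ (b ⬝ᵥ x)
  have hf : Function.Injective f := fun b b' hb => eq_of_addChar_dot_eq hψ (congrFun hb)
  rw [← Finset.card_image_of_injective B hf]
  refine card_jointEigen_le u _ fun χ hχ => ?_
  obtain ⟨b, hb, rfl⟩ := Finset.mem_image.mp hχ
  obtain ⟨y, hy, hyx⟩ := h b hb
  refine ⟨y *ᵥ w, fun h0 => hw ?_, fun x => ?_⟩
  · exact Matrix.mulVec_injective_of_isUnit hy (by rw [h0, Matrix.mulVec_zero])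
  · obtain ⟨x', h1, h2⟩ := hyx x
    rw [Matrix.mulVec_mulVec, h1, ← Matrix.mulVec_mulVec, ha, Matrix.mulVec_smul, h2]

theorem cast_ringChar_ne_zero {E : Type*} [Field E] {L : Type*} [Field L]
    (hK : ringChar E ≠ ringChar F) (f : E →+* L) : (ringChar F : L) ≠ 0 := by
  intro h
  have h1 : (ringChar F : E) = 0 := f.injective (by rw [map_natCast, map_zero, h])
  rcases (Nat.dvd_prime (CharP.char_is_prime F (ringChar F))).mp
    ((ringChar.spec E (ringChar F)).mp h1) with h2 | h2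
  · exact CharP.ringChar_ne_one h2
  · exact hK h2

end CfsgLib.MinDim
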